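import Mathlib
import Cfsg.Agent.Lib.KnownSimple.LabF25
import Cfsg.Agent.Lib.KnownSimple.LabSU
import Cfsg.Agent.Lib.KnownSimple.LabPoly
import Cfsg.Agent.Lib.KnownSimple.LabLevels

/-!
# Subgroups of small index of the special unitary group in dimension three over the field with twenty-five elements
-/

set_option autoImplicit false

namespace Cfsg.Agent.Lib.KnownSimple.U35Lab

open Cfsg.Agent.Lib.KnownSimple.Lab Cfsg.Agent.Lib.KnownSimple.LabMat Cfsg.Agent.Lib.KnownSimple.LabField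
open Cfsg.Agent.Lib.KnownSimple.LabVec Cfsg.Agent.Lib.KnownSimple.LabSU Cfsg.Agent.Lib.Classical Matrix

section closureq

variable {F : Type*} [Field F] [Fintype F] {q n Q : ℕ} {add mul : ℕ → ℕ → ℕ} {fr : ℕ → ℕ}

/-- The letters generate the group, when a root element lies among them, and the orbit of it under the letters
covers all isotropic vectors. -/
theorem su_closure_q (R : Rep F Q add mul) (hF : Fintype.card F = q ^ 2) (hfr : ∀ c, R.φ (fr c) = R.φ c ^ q)
    (hn : 3 ≤ n) (h32 : ¬ (n = 3 ∧ q = 2))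
    {L : List (List ℕ)} {γ : ℕ → Cfsg.SU n F q} {k : ℕ}
    (hγ : ∀ a < k, suHom n F q (γ a) = toM R.φ n (L.getD a []))
    (s0 N : ℕ) (pt : ℕ → List ℕ) (pr gn pos : ℕ → ℕ) (hN : 0 < N)
    (w0 : List ℕ) (hw0 : ∀ a ∈ w0, a < k) (hword : wordC add mul n L w0 = rootC add mul fr n (pt 0) s0)
    (huv : uvOK add mul fr n (pt 0) s0 = true)
    (htree : ∀ j, 0 < j → j < N → pr j < j ∧ gn j < k ∧ mulVC add mul n (L.getD (gn j) []) (pt (pr j)) = pt j)
    (hcov : ∀ c < Q ^ n, hermC add mul fr n (dgC Q n c) (dgC Q n c) < Q ∧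
      (Nat.beq (hermC add mul fr n (dgC Q n c) (dgC Q n c)) 0 = true →
        c = 0 ∨ (pos c < N ∧ pt (pos c) = dgC Q n c)))
    (hs : ∀ c < Q, add c (fr c) < Q ∧ (Nat.beq (add c (fr c)) 0 = true →
      c = 0 ∨ ∃ l, c = mul s0 (mul l (fr l)))) :
    Subgroup.closure (γ '' {a | a < k}) = ⊤ := by
  classical
  have hq := two_le_q hF
  set K := Subgroup.closure (γ '' {a | a < k}) with hK
  have hmem : ∀ w : List ℕ, (∀ a ∈ w, a < k) → wval γ w ∈ K := by
    intro w hw
    induction w with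
    | nil => exact one_mem _
    | cons a w ih =>
      exact mul_mem (Subgroup.subset_closure ⟨a, hw a (by simp), rfl⟩) (ih (fun b hb => hw b (by simp [hb])))
  have hs0 : R.φ s0 + R.φ s0 ^ q = 0 := by
    simp only [uvOK, Bool.and_eq_true, Nat.beq_eq] at huv
    rw [← hfr, ← R.hadd, huv.2, R.h0]
  -- the orbit
  have key : ∀ j, j < N → ∀ H : UV q (toV R.φ n (pt j)) 0 (R.φ s0), ue hF H ∈ K := by
    intro j
    induction j using Nat.strong_induction_on with
    | _ j ih =>
      intro hj H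
      rcases Nat.eq_zero_or_pos j with rfl | h0
      · have h1 := wval_toM (suHom n F q) R.hadd R.hmul R.h0 R.h1 hγ w0 hw0
        rw [hword, toM_rootC R hfr, ← ueM_eq (by omega)] at h1
        have h2 : suHom n F q (wval γ w0) = suHom n F q (ue hF H) := h1
        rw [← suHom_inj h2]
        exact hmem _ hw0
      · obtain ⟨h1, h2, h3⟩ := htree j h0 hj
        set g := γ (gn j) with hg
        have hgK : g ∈ K := Subgroup.subset_closure ⟨gn j, h2, rfl⟩
        have e : (g.1 : Matrix.SpecialLinearGroup (Fin n) F).1 *ᵥ toV R.φ n (pt (pr j)) = toV R.φ n (pt j) := by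
          have h4 : (g.1 : Matrix.SpecialLinearGroup (Fin n) F).1 = toM R.φ n (L.getD (gn j) []) := hγ _ h2
          rw [h4, ← toV_mulVC R.hadd R.hmul R.h0, h3]
        have H' : UV q (toV R.φ n (pt (pr j))) 0 (R.φ s0) := by
          refine ⟨?_, herm_zero_right hF _, ?_⟩
          · have h5 := su_form g (toV R.φ n (pt (pr j))) (toV R.φ n (pt (pr j)))
            rw [e, H.vv] at h5
            exact h5.symm
          · rw [herm_zero_left, add_zero]
            exact hs0
        have h5 := ih _ h1 (by omega) H'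
        have h6 : g * ue hF H' * g⁻¹ ∈ K := mul_mem (mul_mem hgK h5) (inv_mem hgK)
        rw [ue_conj hF H' g] at h6
        have h7 : ue hF (H'.conj hF g) = ue hF H := by
          apply su_ext
          intro x
          rw [ue_mulVec, ue_mulVec, e, mulVec_zero]
        rwa [h7] at h6
  -- all isotropic vectors
  have keyAll : ∀ (u : Fin n → F) (Hu : UV q u 0 (R.φ s0)), ue hF Hu ∈ K := by
    intro u Hu
    obtain ⟨c, hc, hv⟩ := toV_dg R u
    have hvv : hermC add mul fr n (dgC Q n c) (dgC Q n c) = 0 := by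
      obtain ⟨h1, _⟩ := hcov c hc
      have hQ : 0 < Q := by omega
      apply R.hinj _ _ h1 hQ
      rw [← herm_toV R hfr, hv, Hu.vv, R.h0]
    obtain ⟨_, hcv⟩ := hcov c hc
    rcases hcv (by rw [hvv]; rfl) with rfl | ⟨h1, h2⟩
    · have hv0 : u = 0 := by
        rw [← hv]
        ext i
        simp only [toV, dgC]
        rw [getD_range_map' _ i.2]
        simpa using R.h0
      subst hv0
      rw [ue_of_v_zero hF]
      exact one_mem _
    · have hvj : toV R.φ n (pt (pos c)) = u := by rw [h2, hv]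
      subst hvj
      exact key _ h1 Hu
  rw [eq_top_iff, ← rootT_eq_top hF hn h32, rootT, Subgroup.closure_le]
  rintro _ ⟨v, w, s, H, rfl, rfl⟩
  obtain ⟨c1, hc1, hsc⟩ := R.hsurj s
  subst hsc
  -- the scalar
  have hss : add c1 (fr c1) = 0 := by
    obtain ⟨h1, _⟩ := hs c1 hc1
    have hQ : 0 < Q := by omega
    apply R.hinj _ _ h1 hQ
    have e := H.sw
    rw [herm_zero_left, add_zero, ← hfr, ← R.hadd] at e
    rw [e, R.h0]
  obtain ⟨_, hsv⟩ := hs c1 hc1
  rcases hsv (by rw [hss]; rfl) with rfl | ⟨l, rfl⟩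
  · rw [show ue hF H = 1 from by
      apply su_ext
      intro x
      rw [ue_mulVec]
      change _ = (1 : Matrix (Fin n) (Fin n) F) *ᵥ x
      rw [one_mulVec, R.h0, herm_zero_right hF]
      simp]
    exact one_mem _
  · have hsm : R.φ (mul s0 (mul l (fr l))) = R.φ s0 * (R.φ l * R.φ l ^ q) := by
      rw [R.hmul, R.hmul, hfr]
    have H' : UV q (R.φ l • v) 0 (R.φ s0) := by
      refine ⟨?_, herm_zero_right hF _, ?_⟩
      · rw [herm_smul_left, herm_smul_right, H.vv]
        ring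
      · rw [herm_zero_left, add_zero]
        exact hs0
    have e : ue hF H = ue hF H' := by
      apply su_ext
      intro x
      rw [ue_mulVec, ue_mulVec, herm_smul_right, hsm, herm_zero_right hF]
      ext i
      simp only [Pi.add_apply, Pi.sub_apply, Pi.smul_apply, smul_eq_mul, Pi.zero_apply]
      ring
    rw [e]
    exact keyAll _ H'

end closureq

section abstractT

variable {Y : Type*} [Group Y] [Finite Y]

theorem mem_normalizer_of_conj {N : Subgroup Y} {g : Y} (h : ∀ n ∈ N, g * n * g⁻¹ ∈ N) : g ∈ Subgroup.normalizer (N : Set Y) := by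
  rw [Subgroup.mem_normalizer_iff]
  intro n
  refine ⟨h n, fun hn => ?_⟩
  have hinj : Function.Injective (fun x : N => (⟨g * x * g⁻¹, h x x.2⟩ : N)) := by
    intro x y e
    apply Subtype.ext
    have := congrArg Subtype.val e
    simpa using this
  obtain ⟨x, hx⟩ := (Finite.injective_iff_surjective.mp hinj) ⟨_, hn⟩
  have e : g * x * g⁻¹ = g * n * g⁻¹ := congrArg Subtype.val hx
  have e2 : (x : Y) = n := by simpa using e
  exact e2 ▸ x.2

theorem comm_central (x y n m : Y) (h1 : Commute n x) (h2 : Commute n y) (h3 : Commute m x) (h4 : Commute m y)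
    (h5 : Commute n m) : (x * n) * (y * m) * (x * n)⁻¹ * (y * m)⁻¹ = x * y * x⁻¹ * y⁻¹ := by
  have e1 : x * n * (y * m) = x * y * (n * m) := by
    rw [mul_assoc x n, ← mul_assoc n y m, h2.eq, mul_assoc y n m, ← mul_assoc x y]
  have e3 : (x * n)⁻¹ = x⁻¹ * n⁻¹ := by
    rw [_root_.mul_inv_rev, (h1.inv_left.inv_right).eq]
  have e4 : (y * m)⁻¹ = y⁻¹ * m⁻¹ := by
    rw [_root_.mul_inv_rev, (h4.inv_left.inv_right).eq]
  rw [e1, e3, e4]
  have e5 : x * y * (n * m) * (x⁻¹ * n⁻¹) * (y⁻¹ * m⁻¹) = x * y * x⁻¹ * y⁻¹ * ((n * m) * n⁻¹ * m⁻¹) := by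
    have c1 : Commute (n * m) x⁻¹ := ((h1.mul_left h3).inv_right)
    have c2 : Commute ((n * m) * n⁻¹) y⁻¹ := ((h2.mul_left h4).mul_left h2.inv_left).inv_right
    calc x * y * (n * m) * (x⁻¹ * n⁻¹) * (y⁻¹ * m⁻¹)
        = x * y * ((n * m) * x⁻¹) * n⁻¹ * y⁻¹ * m⁻¹ := by group
      _ = x * y * (x⁻¹ * (n * m)) * n⁻¹ * y⁻¹ * m⁻¹ := by rw [c1.eq]
      _ = x * y * x⁻¹ * (((n * m) * n⁻¹) * y⁻¹) * m⁻¹ := by group
      _ = x * y * x⁻¹ * (y⁻¹ * ((n * m) * n⁻¹)) * m⁻¹ := by rw [c2.eq]
      _ = x * y * x⁻¹ * y⁻¹ * ((n * m) * n⁻¹ * m⁻¹) := by group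
  rw [e5]
  have e6 : (n * m) * n⁻¹ * m⁻¹ = 1 := by
    rw [h5.eq]
    group
  rw [e6, mul_one]

/-- A subgroup of a group of shape `5^{1+2}:8` missing the centre of the `5`-part has order at most twenty. -/
theorem T_bound (a b z t : Y) (P : Subgroup Y) (hPd : P = Subgroup.closure ({a, b, z} : Set Y))
    (hY : Subgroup.closure ({t, a, b, z} : Set Y) = ⊤) (hcard : Nat.card Y = 1000) (hP : Nat.card P ≤ 125)
    (ha5 : a ^ 5 = 1) (hb5 : b ^ 5 = 1) (hz5 : z ^ 5 = 1) (hz1 : z ≠ 1)
    (hza : z * a = a * z) (hzb : z * b = b * z) (c : ℕ) (hc : a * b * a⁻¹ * b⁻¹ = z ^ c) (hc5 : ¬ 5 ∣ c)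
    (hta : t * a * t⁻¹ ∈ P) (htb : t * b * t⁻¹ ∈ P) (e0 : ℕ) (htz : t * z * t⁻¹ = z ^ e0) (ht8 : t ^ 8 ∈ P)
    (heig : ∀ m < 5, ∀ n < 5, (m ≠ 0 ∨ n ≠ 0) → ∀ i < 5, ∀ r < 5,
      t * (a ^ m * b ^ n) * t⁻¹ ≠ (a ^ m * b ^ n) ^ i * z ^ r)
    (T : Subgroup Y) (hzT : z ∉ T) : Nat.card T ≤ 20 := by
  classical
  have hp5 : Fact (Nat.Prime 5) := ⟨by norm_num⟩
  have haP : a ∈ P := by rw [hPd]; exact Subgroup.subset_closure (by simp)
  have hbP : b ∈ P := by rw [hPd]; exact Subgroup.subset_closure (by simp)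
  have hzP : z ∈ P := by rw [hPd]; exact Subgroup.subset_closure (by simp)
  have hconjt : ∀ x ∈ P, t * x * t⁻¹ ∈ P := by
    intro x hx
    have hle : P ≤ P.comap (MulAut.conj t).toMonoidHom := by
      conv_lhs => rw [hPd]
      rw [Subgroup.closure_le]
      rintro y (rfl | rfl | rfl)
      · simpa [MulAut.conj_apply] using hta
      · simpa [MulAut.conj_apply] using htb
      · have h1 : t * y * t⁻¹ ∈ P := by
          rw [htz]
          exact pow_mem hzP _
        simpa [MulAut.conj_apply] using h1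
    simpa [MulAut.conj_apply] using hle hx
  -- normality
  have hPn : P.Normal := by
    have h1 : Subgroup.normalizer (P : Set Y) = ⊤ := by
      rw [eq_top_iff, ← hY, Subgroup.closure_le]
      rintro x (rfl | rfl | rfl | rfl)
      · exact mem_normalizer_of_conj hconjt
      · exact Subgroup.le_normalizer haP
      · exact Subgroup.le_normalizer hbP
      · exact Subgroup.le_normalizer hzP
    exact Subgroup.normalizer_eq_top_iff.mp h1
  set N : Subgroup Y := Subgroup.zpowers z with hNd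
  have hcomZ : ∀ g : Y, g * z * g⁻¹ ∈ N → g ∈ Subgroup.normalizer (N : Set Y) := by
    intro g hg
    apply mem_normalizer_of_conj
    intro n hn
    obtain ⟨k, rfl⟩ := Subgroup.mem_zpowers_iff.mp hn
    rw [← conj_zpow]
    exact zpow_mem hg k
  have hNn : N.Normal := by
    have h1 : Subgroup.normalizer (N : Set Y) = ⊤ := by
      rw [eq_top_iff, ← hY, Subgroup.closure_le]
      intro x hx
      have hzN : z ∈ N := Subgroup.mem_zpowers z
      rcases hx with hx | hx | hx | hx
      · rw [hx]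
        apply hcomZ
        rw [htz]
        exact pow_mem hzN _
      · rw [show x = a from hx]
        apply hcomZ
        rw [← hza, mul_inv_cancel_right]
        exact hzN
      · rw [show x = b from hx]
        apply hcomZ
        rw [← hzb, mul_inv_cancel_right]
        exact hzN
      · rw [show x = z from hx]
        apply hcomZ
        rw [mul_inv_cancel_right]
        exact hzN
    exact Subgroup.normalizer_eq_top_iff.mp h1
  have hzo : orderOf z = 5 := orderOf_eq_prime hz5 hz1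
  have hNc : Nat.card N = 5 := by
    rw [hNd, Nat.card_zpowers, hzo]
  -- normal forms in the five-part
  have hZa : ∀ k i : ℕ, z ^ k * a ^ i = a ^ i * z ^ k := fun k i => ((Commute.pow_pow (show Commute z a from hza) k i)).eq
  have hZb : ∀ k i : ℕ, z ^ k * b ^ i = b ^ i * z ^ k := fun k i => ((Commute.pow_pow (show Commute z b from hzb) k i)).eq
  have hba : b * a = a * b * z ^ (4 * c) := by
    have h1 : a * b = z ^ c * (b * a) := by
      have := hc
      rw [← this]
      group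
    have h2 : z ^ (4 * c) * z ^ c = 1 := by
      rw [← pow_add, show 4 * c + c = 5 * c by ring, pow_mul, hz5, one_pow]
    calc b * a = z ^ (4 * c) * z ^ c * (b * a) := by rw [h2, one_mul]
      _ = z ^ (4 * c) * (z ^ c * (b * a)) := by rw [mul_assoc]
      _ = z ^ (4 * c) * (a * b) := by rw [← h1]
      _ = a * b * z ^ (4 * c) := by
        have h3 := hZa (4 * c) 1
        have h4 := hZb (4 * c) 1
        rw [pow_one] at h3 h4
        rw [← mul_assoc, h3, mul_assoc, h4, mul_assoc]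
  have hbai : ∀ i : ℕ, ∃ r : ℕ, b * a ^ i = a ^ i * b * z ^ r := by
    intro i
    induction i with
    | zero => exact ⟨0, by simp⟩
    | succ i ih =>
      obtain ⟨r, hr⟩ := ih
      refine ⟨4 * c + r, ?_⟩
      have h3 := hZa r 1
      rw [pow_one] at h3
      rw [pow_succ, ← mul_assoc, hr, mul_assoc (a ^ i * b), h3, ← mul_assoc, mul_assoc (a ^ i), hba, pow_add, ← mul_assoc]
      simp only [pow_succ, mul_assoc]
  have hL : ∀ g ∈ ({a, b, z} : Set Y), ∀ x : Y, (∃ i j k : ℕ, x = a ^ i * b ^ j * z ^ k) →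
      (∃ i j k : ℕ, g * x = a ^ i * b ^ j * z ^ k) := by
    rintro g (rfl | rfl | rfl) x ⟨i, j, k, rfl⟩
    · exact ⟨i + 1, j, k, by rw [pow_succ']; simp only [mul_assoc]⟩
    · obtain ⟨r, hr⟩ := hbai i
      refine ⟨i, j + 1, r + k, ?_⟩
      rw [← mul_assoc, ← mul_assoc, hr, pow_succ', pow_add]
      have h3 := hZb r j
      calc a ^ i * g * z ^ r * g ^ j * z ^ k = a ^ i * g * (z ^ r * g ^ j) * z ^ k := by simp only [mul_assoc]
        _ = a ^ i * g * (g ^ j * z ^ r) * z ^ k := by rw [h3]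
        _ = _ := by simp only [mul_assoc]
    · refine ⟨i, j, k + 1, ?_⟩
      have h3 := hZa 1 i
      have h4 := hZb 1 j
      rw [pow_one] at h3 h4
      rw [pow_succ']
      calc g * (a ^ i * b ^ j * g ^ k) = (g * a ^ i) * b ^ j * g ^ k := by simp only [mul_assoc]
        _ = a ^ i * (g * b ^ j) * g ^ k := by rw [h3]; simp only [mul_assoc]
        _ = a ^ i * (b ^ j * g) * g ^ k := by rw [h4]
        _ = _ := by simp only [mul_assoc]
  have hinvs : ∀ g ∈ ({a, b, z} : Set Y), g⁻¹ = g * (g * (g * g)) := by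
    rintro g (rfl | rfl | rfl)
    · rw [inv_eq_iff_mul_eq_one]
      calc g * (g * (g * (g * g))) = g ^ 5 := by simp only [pow_succ, pow_zero, one_mul, mul_assoc]
        _ = 1 := ha5
    · rw [inv_eq_iff_mul_eq_one]
      calc g * (g * (g * (g * g))) = g ^ 5 := by simp only [pow_succ, pow_zero, one_mul, mul_assoc]
        _ = 1 := hb5
    · rw [inv_eq_iff_mul_eq_one]
      calc g * (g * (g * (g * g))) = g ^ 5 := by simp only [pow_succ, pow_zero, one_mul, mul_assoc]
        _ = 1 := hz5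
  have hPf : ∀ x ∈ P, ∃ i j k : ℕ, x = a ^ i * b ^ j * z ^ k := by
    intro x hx
    rw [hPd] at hx
    refine Subgroup.closure_induction_left (p := fun x _ => ∃ i j k : ℕ, x = a ^ i * b ^ j * z ^ k) ?_ ?_ ?_ hx
    · exact ⟨0, 0, 0, by simp⟩
    · intro g hg y _ h
      exact hL g hg y h
    · intro g hg y _ h
      rw [hinvs g hg, mul_assoc, mul_assoc, mul_assoc]
      exact hL g hg _ (hL g hg _ (hL g hg _ (hL g hg y h)))
  have hzc : ∀ p ∈ P, ∀ k : ℕ, z ^ k * p = p * z ^ k := by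
    intro p hp k
    obtain ⟨i, j, l, rfl⟩ := hPf p hp
    have h3 := hZa k i
    have h4 := hZb k j
    calc z ^ k * (a ^ i * b ^ j * z ^ l) = (z ^ k * a ^ i) * b ^ j * z ^ l := by simp only [mul_assoc]
      _ = a ^ i * (z ^ k * b ^ j) * z ^ l := by rw [h3]; simp only [mul_assoc]
      _ = a ^ i * b ^ j * (z ^ k * z ^ l) := by rw [h4]; simp only [mul_assoc]
      _ = a ^ i * b ^ j * (z ^ l * z ^ k) := by rw [← pow_add, ← pow_add, add_comm]
      _ = _ := by simp only [mul_assoc]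
  -- the order of the five-part
  have hcl : Subgroup.closure ({t} ∪ (P : Set Y)) = ⊤ := by
    rw [eq_top_iff, ← hY, Subgroup.closure_le]
    rintro x (rfl | rfl | rfl | rfl)
    · exact Subgroup.subset_closure (Or.inl rfl)
    · exact Subgroup.subset_closure (Or.inr haP)
    · exact Subgroup.subset_closure (Or.inr hbP)
    · exact Subgroup.subset_closure (Or.inr hzP)
  have hPge := card_step P t 8 (by norm_num) hconjt ht8
  rw [hcl, Subgroup.card_top, hcard] at hPge
  have hP125 : Nat.card P = 125 := by omega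
  have hidx : P.index = 8 := by
    have h1 := Subgroup.card_mul_index P
    rw [hP125, hcard] at h1
    omega
  -- elements of the subgroup in the centre part
  have hNT : ∀ x ∈ T, x ∈ N → x = 1 := by
    intro x hxT hxN
    by_contra hne
    have h1 : (⟨x, hxN⟩ : N) ≠ 1 := fun h => hne (congrArg Subtype.val h)
    have h2 := mem_zpowers_of_prime_card hNc (g := (⟨x, hxN⟩ : N)) (g' := ⟨z, Subgroup.mem_zpowers z⟩) h1
    obtain ⟨k, hk⟩ := Subgroup.mem_zpowers_iff.mp h2
    have h3 : x ^ k = z := by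
      have := congrArg Subtype.val hk
      simpa using this
    exact hzT (h3 ▸ zpow_mem hxT k)
  -- the intersection
  set T0 : Subgroup Y := T ⊓ P with hT0
  have hT0dvd : Nat.card T0 ∣ 125 := by
    rw [← hP125]
    exact Subgroup.card_dvd_of_le inf_le_right
  have hprod : Function.Injective (fun x : T0 × N => (⟨x.1.1 * x.2.1, P.mul_mem x.1.2.2 (by
      obtain ⟨k, hk⟩ := Subgroup.mem_zpowers_iff.mp x.2.2
      rw [← hk]
      exact zpow_mem hzP k)⟩ : P)) := by
    rintro ⟨x, n⟩ ⟨x', n'⟩ e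
    have e1 : x.1 * n.1 = x'.1 * n'.1 := congrArg Subtype.val e
    have e2 : x'.1⁻¹ * x.1 = n'.1 * n.1⁻¹ := by
      rw [inv_mul_eq_iff_eq_mul, ← mul_assoc, ← e1]
      group
    have e3 : x'.1⁻¹ * x.1 = 1 := by
      apply hNT
      · exact T.mul_mem (T.inv_mem x'.2.1) x.2.1
      · rw [e2]
        exact N.mul_mem n'.2 (N.inv_mem n.2)
    have e4 : x.1 = x'.1 := (inv_mul_eq_one.mp e3).symm
    have e5 : n.1 = n'.1 := by
      rw [e4] at e1
      exact mul_left_cancel e1
    exact Prod.ext (Subtype.ext e4) (Subtype.ext e5)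
  have hle := Nat.card_le_card_of_injective _ hprod
  rw [Nat.card_prod, hNc, hP125] at hle
  have hne25 : Nat.card T0 ≠ 25 := by
    intro h25
    have hbij : Function.Surjective (fun x : T0 × N => (⟨x.1.1 * x.2.1, P.mul_mem x.1.2.2 (by
      obtain ⟨k, hk⟩ := Subgroup.mem_zpowers_iff.mp x.2.2
      rw [← hk]
      exact zpow_mem hzP k)⟩ : P)) := by
      have hcd : Nat.card (T0 × N) = Nat.card P := by
        rw [Nat.card_prod, hNc, hP125, h25]
      exact (Function.Injective.bijective_of_nat_card_le hprod hcd.ge).2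
    obtain ⟨⟨x, n⟩, hx⟩ := hbij ⟨a, haP⟩
    obtain ⟨⟨y, m⟩, hy⟩ := hbij ⟨b, hbP⟩
    have e1 : x.1 * n.1 = a := congrArg Subtype.val hx
    have e2 : y.1 * m.1 = b := congrArg Subtype.val hy
    obtain ⟨kn, hkn⟩ := Subgroup.mem_zpowers_iff.mp n.2
    obtain ⟨km, hkm⟩ := Subgroup.mem_zpowers_iff.mp m.2
    have hznat : ∀ w ∈ N, ∃ k : ℕ, w = z ^ k := by
      intro w hw
      obtain ⟨k, hk⟩ := (mem_powers_iff_mem_zpowers (x := z) (y := w)).mpr hw
      exact ⟨k, hk.symm⟩
    obtain ⟨kn', hkn'⟩ := hznat n.1 n.2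
    obtain ⟨km', hkm'⟩ := hznat m.1 m.2
    have hCx : ∀ k : ℕ, ∀ p ∈ P, Commute (z ^ k) p := fun k p hp => hzc p hp k
    have h5 := comm_central x.1 y.1 n.1 m.1 (by rw [hkn']; exact hCx _ _ x.2.2) (by rw [hkn']; exact hCx _ _ y.2.2)
      (by rw [hkm']; exact hCx _ _ x.2.2) (by rw [hkm']; exact hCx _ _ y.2.2)
      (by rw [hkn', hkm']; exact Commute.pow_pow (Commute.refl z) _ _)
    rw [e1, e2, hc] at h5
    have h6 : z ^ c ∈ T := by
      rw [h5]
      exact T.mul_mem (T.mul_mem (T.mul_mem x.2.1 y.2.1) (T.inv_mem x.2.1)) (T.inv_mem y.2.1)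
    have h7 := hNT _ h6 (pow_mem (Subgroup.mem_zpowers z) c)
    have h8 := orderOf_dvd_of_pow_eq_one h7
    rw [hzo] at h8
    exact hc5 h8
  have hT0c : Nat.card T0 = 1 ∨ Nat.card T0 = 5 := by
    obtain ⟨k, hk, hk2⟩ := (Nat.dvd_prime_pow (by norm_num : Nat.Prime 5)).mp (show Nat.card T0 ∣ 5 ^ 3 by simpa using hT0dvd)
    interval_cases k
    · left; simpa using hk2
    · right; simpa using hk2
    · exact absurd (by simpa using hk2) hne25
    · rw [hk2] at hle
      norm_num at hle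
  -- the quotient by the five-part
  by_contra hcon
  have h21 : 21 ≤ Nat.card T := by omega
  let φ : T →* Y ⧸ P := (QuotientGroup.mk' P).comp T.subtype
  have hkerc : Nat.card φ.ker = Nat.card T0 := by
    have hinj : Function.Injective T.subtype := Subtype.val_injective
    have h1 := Subgroup.card_map_of_injective (K := φ.ker) hinj
    rw [← h1]
    congr 2
    ext x
    simp only [Subgroup.mem_map, MonoidHom.mem_ker, hT0, Subgroup.mem_inf]
    constructor
    · rintro ⟨y, hy, rfl⟩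
      exact ⟨y.2, (QuotientGroup.eq_one_iff _).mp hy⟩
    · rintro ⟨h1, h2⟩
      exact ⟨⟨x, h1⟩, (QuotientGroup.eq_one_iff _).mpr h2, rfl⟩
  have hmulc : Nat.card T = Nat.card T0 * Nat.card φ.range := by
    have h1 := Subgroup.card_mul_index φ.ker
    rw [Subgroup.index_ker, hkerc] at h1
    exact h1.symm
  have hrd : Nat.card φ.range ∣ 8 := by
    rw [← hidx]
    exact Subgroup.card_subgroup_dvd_card _
  have hrc : Nat.card φ.range = 8 ∧ Nat.card T0 = 5 := by
    have hr : Nat.card φ.range ≤ 8 := Nat.le_of_dvd (by norm_num) hrd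
    have hr' : Nat.card φ.range = 1 ∨ Nat.card φ.range = 2 ∨ Nat.card φ.range = 4 ∨ Nat.card φ.range = 8 := by
      have : Nat.card φ.range ∈ Nat.divisors 8 := Nat.mem_divisors.mpr ⟨hrd, by norm_num⟩
      have e : Nat.divisors 8 = {1, 2, 4, 8} := by decide
      rw [e] at this
      simpa using this
    rcases hT0c with h | h <;> rcases hr' with h' | h' | h' | h' <;> rw [h, h'] at hmulc <;> first | omega | exact ⟨h', h⟩
  have hrtop : φ.range = ⊤ := by
    apply Subgroup.eq_top_of_card_eq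
    rw [hrc.1]
    exact hidx.symm
  obtain ⟨s, hs⟩ : ∃ s : T, φ s = (QuotientGroup.mk t : Y ⧸ P) := by
    have : (QuotientGroup.mk t : Y ⧸ P) ∈ φ.range := by rw [hrtop]; trivial
    exact this
  have hp' : (s : Y)⁻¹ * t ∈ P := QuotientGroup.eq.mp hs
  set p : Y := (s : Y)⁻¹ * t with hpd
  have hts : t = s * p := by rw [hpd]; group
  -- an element of the intersection
  have hT0nt : Nontrivial T0 := by
    rw [← Finite.one_lt_card_iff_nontrivial, hrc.2]
    norm_num
  obtain ⟨u, hu⟩ := exists_ne (1 : T0)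
  have hu1 : (u : Y) ≠ 1 := fun h => hu (Subtype.ext h)
  have hsu : (s : Y) * u * (s : Y)⁻¹ ∈ T0 := by
    refine ⟨T.mul_mem (T.mul_mem s.2 u.2.1) (T.inv_mem s.2), ?_⟩
    exact hPn.conj_mem _ u.2.2 _
  have h3 := mem_zpowers_of_prime_card hrc.2 (g := u) (g' := ⟨_, hsu⟩) hu
  obtain ⟨i0, hi0⟩ := (mem_powers_iff_mem_zpowers (x := u) (y := (⟨_, hsu⟩ : T0))).mpr h3
  have hi1 : (u : Y) ^ i0 = (s : Y) * u * (s : Y)⁻¹ := by
    have := congrArg Subtype.val hi0
    simpa using this
  have hu5 : (u : Y) ^ 5 = 1 := by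
    have h4 := pow_card_eq_one' (x := u)
    rw [hrc.2] at h4
    have := congrArg Subtype.val h4
    simpa using this
  -- modulo the centre
  let π : Y →* Y ⧸ N := QuotientGroup.mk' N
  have hπz : π z = 1 := (QuotientGroup.eq_one_iff _).mpr (Subgroup.mem_zpowers z)
  have hab : Commute (π a) (π b) := by
    have h4 : π (a * b * a⁻¹ * b⁻¹) = 1 := by
      rw [hc, map_pow, hπz, one_pow]
    simp only [map_mul, map_inv] at h4
    have h5 : π a * π b * (π a)⁻¹ = π b := mul_inv_eq_one.mp h4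
    exact mul_inv_eq_iff_eq_mul.mp h5
  have hcomP : ∀ x ∈ P, ∀ y ∈ P, π x * π y = π y * π x := by
    intro x hx y hy
    obtain ⟨i, j, k, rfl⟩ := hPf x hx
    obtain ⟨m, n, l, rfl⟩ := hPf y hy
    simp only [map_mul, map_pow, hπz, one_pow, mul_one]
    have c1 : Commute (π a ^ i) (π a ^ m) := Commute.pow_pow (Commute.refl _) _ _
    have c2 : Commute (π a ^ i) (π b ^ n) := Commute.pow_pow hab _ _
    have c3 : Commute (π b ^ j) (π a ^ m) := (Commute.pow_pow hab _ _).symm
    have c4 : Commute (π b ^ j) (π b ^ n) := Commute.pow_pow (Commute.refl _) _ _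
    exact ((c1.mul_right c2).mul_left (c3.mul_right c4)).eq
  obtain ⟨m0, n0, l0, hun⟩ := hPf u u.2.2
  set v : Y := a ^ (m0 % 5) * b ^ (n0 % 5) with hvd
  have hav : a ^ m0 = a ^ (m0 % 5) := pow_eq_pow_mod _ ha5
  have hbv : b ^ n0 = b ^ (n0 % 5) := pow_eq_pow_mod _ hb5
  have huv : π (u : Y) = π v := by
    rw [hun, hav, hbv, hvd]
    simp only [map_mul, map_pow, hπz, one_pow, mul_one]
  have hvP : v ∈ P := mul_mem (pow_mem haP _) (pow_mem hbP _)
  have hkey : π (t * v * t⁻¹) = π (v ^ (i0 % 5)) := by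
    have e1 : (u : Y) ^ (i0 % 5) = (s : Y) * u * (s : Y)⁻¹ := by
      rw [← pow_eq_pow_mod _ hu5]
      exact hi1
    have e2 : π (t * v * t⁻¹) = π s * (π p * π v * (π p)⁻¹) * (π s)⁻¹ := by
      rw [hts]
      simp only [map_mul, map_inv, _root_.mul_inv_rev]
      group
    rw [e2, hcomP p hp' v hvP, mul_inv_cancel_right, ← huv, map_pow, huv.symm, ← map_pow, e1]
    simp only [map_mul, map_inv]
  -- the element of the centre
  have hmemN : (v ^ (i0 % 5))⁻¹ * (t * v * t⁻¹) ∈ N := by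
    rw [← QuotientGroup.eq]
    exact hkey.symm
  obtain ⟨r0, hr0⟩ := (mem_powers_iff_mem_zpowers (x := z) (y := (v ^ (i0 % 5))⁻¹ * (t * v * t⁻¹))).mpr hmemN
  have hr1 : (v ^ (i0 % 5))⁻¹ * (t * v * t⁻¹) = z ^ (r0 % 5) := by
    have h4 : z ^ r0 = z ^ (r0 % 5) := pow_eq_pow_mod _ hz5
    rw [← h4]
    exact hr0.symm
  have hfin : t * v * t⁻¹ = v ^ (i0 % 5) * z ^ (r0 % 5) := by
    rw [← hr1]
    group
  by_cases hm : m0 % 5 = 0 ∧ n0 % 5 = 0
  · -- an element of the centre
    have h4 : (u : Y) = z ^ l0 := by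
      rw [hun, hav, hbv, hm.1, hm.2]
      simp
    exact hu1 (hNT _ u.2.1 (by rw [h4]; exact pow_mem (Subgroup.mem_zpowers z) _))
  · have hm' : m0 % 5 ≠ 0 ∨ n0 % 5 ≠ 0 := by
      by_contra h
      push_neg at h
      exact hm h
    exact heig (m0 % 5) (Nat.mod_lt _ (by norm_num)) (n0 % 5) (Nat.mod_lt _ (by norm_num)) hm' (i0 % 5)
      (Nat.mod_lt _ (by norm_num)) (r0 % 5) (Nat.mod_lt _ (by norm_num)) hfin

end abstractT

end Cfsg.Agent.Lib.KnownSimple.U35Lab
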